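import Cfsg.Agent.H884.ElIrr

/-!
# The adjoint of a field commuting with a large isometry (S5733, BS-R4)

* `Iso.adj_eq` : on the commutator space (irreducible, of dimension `2 j`) of an isometry `x` the adjoint of an
  endomorphism `J` commuting with `x` is `J ^ (q ^ j)`;
* `no_two` : no quadratic field closed under adjoints is normalised by a group of isometries meeting both
  large exponents `2 j`, `j` odd, and `2 j'`, `j'` even.
-/

set_option autoImplicit false

namespace Cfsg.Agent.H305.BS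

open Module QuadraticMap Cfsg.Geo Cfsg.Agent.LieClassical.OrthCore Cfsg.Agent.H955 Cfsg.Agent.H954.TSing
open Cfsg.Agent.H884.El
open Cfsg.Agent.H951 (fx cm Inv)
open scoped MatrixGroups Matrix Polynomial

universe u v

section Abs

variable {F : Type u} [Field F] [Fintype F] {V : Type v} [AddCommGroup V] [Module F V]

omit [Fintype F] in
theorem inv_aeval {x : Module.End F V} {W : Submodule F V} (hW : Inv x W) (f : F[X]) :
    ∀ w ∈ W, Polynomial.aeval x f w ∈ W := by
  induction f using Polynomial.induction_on' with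
  | add p q hp hq =>
    intro w hw
    rw [map_add]
    exact W.add_mem (hp w hw) (hq w hw)
  | monomial n a =>
    intro w hw
    rw [Polynomial.aeval_monomial, Module.End.mul_apply, Module.algebraMap_end_apply]
    refine W.smul_mem _ ?_
    have hpow : ∀ k : ℕ, (x ^ k) w ∈ W := by
      intro k
      induction k with
      | zero => simpa using hw
      | succ k ih => rw [pow_succ', Module.End.mul_apply]; exact hW _ ih
    exact hpow n

/-- Frobenius and polynomials over `F`. -/
theorem aeval_pow_card {A : Type*} [Ring A] [Algebra F A] (x : A) (f : F[X]) (j : ℕ) :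
    Polynomial.aeval (x ^ (Nat.card F) ^ j) f = (Polynomial.aeval x f) ^ (Nat.card F) ^ j := by
  induction j with
  | zero => simp
  | succ j ih =>
    rw [pow_succ, pow_mul, pow_mul, ← ih, ← map_pow, Nat.card_eq_fintype_card,
      ← FiniteField.expand_card, Polynomial.expand_aeval]

/-- the powers. -/
theorem dvd_pow_add_one {q j r : ℕ} (hr : PP q (2 * j) r) (hj : 1 ≤ j) (hq : 1 ≤ q) : r ∣ q ^ j + 1 := by
  have h1 : r ∣ q ^ (2 * j) - 1 := (hr.dvd_iff hq _).2 dvd_rfl
  have h2 : ¬ r ∣ q ^ j - 1 := by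
    rw [hr.dvd_iff hq]
    intro h
    have := Nat.le_of_dvd (by omega) h
    omega
  have h3 : q ^ (2 * j) - 1 = (q ^ j + 1) * (q ^ j - 1) := by
    have h4 : q ^ (2 * j) = q ^ j * q ^ j := by rw [two_mul, pow_add]
    have h5 : 1 ≤ q ^ j := Nat.one_le_pow _ _ hq
    obtain ⟨a, ha⟩ := Nat.exists_eq_add_of_le h5
    rw [h4, ha, Nat.add_sub_cancel_left]
    have h6 : (1 + a) * (1 + a) = (1 + a + 1) * a + 1 := by ring
    omega
  rw [h3] at h1
  exact (hr.prime.dvd_mul.1 h1).resolve_right h2

variable [FiniteDimensional F V] {Q : QuadraticForm F V} {x : Module.End F V} {r : ℕ}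

/-- an endomorphism commuting with `x` is a polynomial in `x` on the commutator space, if this is irreducible. -/
theorem Iso.exists_poly {e : ℕ} (h : Iso Q x r) (hx1 : x ≠ 1) (hr : PP (Nat.card F) e r)
    (hcm : finrank F (cm x) = e) {J : Module.End F V} (hJx : ∀ v, J (x v) = x (J v)) :
    ∃ f : F[X], ∀ v ∈ cm x, J v = Polynomial.aeval x f v := by
  obtain ⟨w₀, hw₀, hw₀1⟩ := (Submodule.ne_bot_iff _).1 (cm_ne_bot hx1)
  have hJcm : ∀ w ∈ cm x, J w ∈ cm x := by
    intro w hw
    obtain ⟨y, hy⟩ := H951.mem_cm.1 hw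
    refine H951.mem_cm.2 ⟨J y, ?_⟩
    rw [← hJx, ← map_sub, hy]
  have key : ∀ S : Submodule F V, S ≤ cm x → Inv x S → S ≠ ⊥ → S = cm x := by
    intro S hS hSi hS0
    have h1 := h.dvd hr hSi
    rw [inf_eq_left.2 hS] at h1
    have h2 := Submodule.finrank_mono hS
    have h3 : finrank F S ≠ 0 := fun h0 => hS0 (Submodule.finrank_eq_zero.1 h0)
    have := Nat.le_of_dvd (Nat.pos_of_ne_zero h3) h1
    exact Submodule.eq_of_le_of_finrank_eq hS (by omega)
  -- the cyclic submodule generated by `w₀`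
  let ev : F[X] →ₗ[F] V := (LinearMap.applyₗ w₀).comp (Polynomial.aeval x).toLinearMap
  have hev : ∀ f, ev f = Polynomial.aeval x f w₀ := fun f => rfl
  have hS : LinearMap.range ev = cm x := by
    apply key
    · rintro _ ⟨f, rfl⟩
      exact inv_aeval H951.inv_cm f _ hw₀
    · rintro _ ⟨f, rfl⟩
      refine ⟨Polynomial.X * f, ?_⟩
      rw [hev, hev, map_mul, Polynomial.aeval_X, Module.End.mul_apply]
    · intro h0
      apply hw₀1
      have h1 : ev 1 ∈ LinearMap.range ev := ⟨1, rfl⟩
      rw [h0, Submodule.mem_bot, hev, map_one] at h1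
      exact h1
  obtain ⟨f, hf⟩ : ∃ f, ev f = J w₀ := by
    have h1 : J w₀ ∈ LinearMap.range ev := by rw [hS]; exact hJcm _ hw₀
    exact h1
  refine ⟨f, ?_⟩
  rw [hev] at hf
  have hfx : ∀ v, Polynomial.aeval x f (x v) = x (Polynomial.aeval x f v) := by
    intro v
    have h1 : Polynomial.aeval x f * x = x * Polynomial.aeval x f := by
      conv_lhs => rw [← Polynomial.aeval_X (R := F) x]
      conv_rhs => rw [← Polynomial.aeval_X (R := F) x]
      simp only [Polynomial.aeval_X]
      have h2 : Polynomial.aeval x (f * Polynomial.X) = Polynomial.aeval x (Polynomial.X * f) := by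
        rw [mul_comm]
      rw [map_mul, map_mul, Polynomial.aeval_X] at h2
      exact h2
    exact LinearMap.congr_fun h1 v
  have hU : LinearMap.ker (J - Polynomial.aeval x f) ⊓ cm x = cm x := by
    apply key _ inf_le_right
    · rintro v ⟨hv, hv'⟩
      refine ⟨?_, H951.inv_cm v hv'⟩
      rw [SetLike.mem_coe, LinearMap.mem_ker, LinearMap.sub_apply, sub_eq_zero] at hv ⊢
      rw [hJx, hfx, hv]
    · intro h0
      apply hw₀1
      have h1 : w₀ ∈ LinearMap.ker (J - Polynomial.aeval x f) ⊓ cm x := by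
        refine ⟨?_, hw₀⟩
        rw [SetLike.mem_coe, LinearMap.mem_ker, LinearMap.sub_apply, hf, sub_self]
      rw [h0, Submodule.mem_bot] at h1
      exact h1
  intro v hv
  rw [← hU] at hv
  have h1 := hv.1
  rw [SetLike.mem_coe, LinearMap.mem_ker, LinearMap.sub_apply, sub_eq_zero] at h1
  exact h1

/-- **The adjoint** on the commutator space is the `q ^ j`-th power. -/
theorem Iso.adj_eq {j : ℕ} (hj : 1 ≤ j) (h : Iso Q x r) (hQ : Nondeg Q) (hx1 : x ≠ 1)
    (hr : PP (Nat.card F) (2 * j) r) (hcm : finrank F (cm x) = 2 * j) {J J' : Module.End F V}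
    (hJx : ∀ v, J (x v) = x (J v)) (hJx' : ∀ v, J' (x v) = x (J' v))
    (hadj : ∀ u v, polar Q (J u) v = polar Q u (J' v)) :
    ∀ v ∈ cm x, J' v = (J ^ (Nat.card F) ^ j) v := by
  have hq := one_lt_q F
  obtain ⟨f, hf⟩ := Iso.exists_poly h hx1 hr hcm hJx
  set y : Module.End F V := x ^ (Nat.card F) ^ j with hy
  have hyx : y * x = 1 := by
    obtain ⟨c, hc⟩ := dvd_pow_add_one hr hj hq.le
    rw [hy, ← pow_succ, hc, pow_mul, h.pow, one_pow]
  have hxy : x * y = 1 := by rw [hy, ← pow_succ', pow_succ]; exact hyx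
  have h1 : ∀ u v, polar Q (x u) v = polar Q u (y v) := by
    intro u v
    have h2 : v = x (y v) := (LinearMap.congr_fun hxy v).symm
    conv_lhs => rw [h2]
    exact polar_isom h.iso _ _
  have h2 : ∀ k : ℕ, ∀ u v, polar Q ((x ^ k) u) v = polar Q u ((y ^ k) v) := by
    intro k
    induction k with
    | zero => intro u v; simp
    | succ k ih =>
      intro u v
      rw [pow_succ', Module.End.mul_apply, h1, ih, pow_succ, Module.End.mul_apply]
  have h3 : ∀ g : F[X], ∀ u v, polar Q (Polynomial.aeval x g u) v = polar Q u (Polynomial.aeval y g v) := by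
    intro g
    induction g using Polynomial.induction_on' with
    | add a b ha hb =>
      intro u v
      rw [map_add, map_add, LinearMap.add_apply, LinearMap.add_apply, polar_add_left, polar_add_right, ha, hb]
    | monomial n a =>
      intro u v
      rw [Polynomial.aeval_monomial, Polynomial.aeval_monomial, Module.End.mul_apply, Module.End.mul_apply,
        Module.algebraMap_end_apply, Module.algebraMap_end_apply, polar_smul_left, polar_smul_right, h2]
  have hpow : ∀ k : ℕ, ∀ v ∈ cm x, (J ^ k) v = ((Polynomial.aeval x f) ^ k) v := by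
    intro k
    induction k with
    | zero => intro v _; rfl
    | succ k ih =>
      intro v hv
      rw [pow_succ, Module.End.mul_apply, pow_succ, Module.End.mul_apply, hf v hv]
      exact ih _ (inv_aeval H951.inv_cm f _ hv)
  have hcmJ : ∀ (K : Module.End F V), (∀ v, K (x v) = x (K v)) → ∀ w ∈ cm x, K w ∈ cm x := by
    intro K hK w hw
    obtain ⟨z, hz⟩ := H951.mem_cm.1 hw
    refine H951.mem_cm.2 ⟨K z, ?_⟩
    rw [← hK, ← map_sub, hz]
  have hnd := nondeg_cm hQ h.iso h.ne0 h.pow
  intro v hv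
  have h4 : (J ^ (Nat.card F) ^ j) v = Polynomial.aeval y f v := by
    rw [hpow _ v hv, hy, aeval_pow_card]
  rw [h4]
  have h5 : Polynomial.aeval y f v ∈ cm x := by
    rw [hy, aeval_pow_card, ← hpow _ v hv]
    have h6 : ∀ k : ℕ, ∀ w ∈ cm x, (J ^ k) w ∈ cm x := by
      intro k
      induction k with
      | zero => intro w hw; exact hw
      | succ k ih =>
        intro w hw
        rw [pow_succ, Module.End.mul_apply]
        exact ih _ (hcmJ J hJx _ hw)
    exact h6 _ v hv
  have h6 := hcmJ J' hJx' v hv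
  have h7 := hnd ⟨J' v - Polynomial.aeval y f v, (cm x).sub_mem h6 h5⟩ fun w => by
    rw [polar_res]
    show polar Q (J' v - Polynomial.aeval y f v) w = 0
    rw [polar_comm, sub_eq_add_neg, polar_add_right, polar_neg_right, ← hadj, ← h3, hf _ w.2]
    ring
  exact sub_eq_zero.1 (congrArg Subtype.val h7)

end Abs

section Mat

variable {ι : Type} [Fintype ι] [DecidableEq ι] {F : Type u} [Field F] [Fintype F] {Q : QuadraticForm F (ι → F)}
  {H : Subgroup (GL ι F)}

/-- the adjoint of an element of the field `K` is its `q ^ j`-th power. -/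
theorem adj_field [Nonempty ι] {j r s : ℕ} (hj : 1 ≤ j) (hn : Fintype.card ι < 4 * j) (hQ : Nondeg Q)
    (hH : H ≤ Cfsg.isometryGroup F (⇑Q)) (hs : s.Prime)
    (hr : PP (Nat.card F) (2 * j) r) (hdvd : r ∣ Nat.card H) (hrs : r ≠ s)
    {K : Subalgebra F (Matrix ι ι F)} (hK : IsFieldSubalgebra s K) (hHK : H ≤ subalgebraNormalizer K)
    {k k' : Matrix ι ι F} (hk : k ∈ K) (hk' : k' ∈ K)
    (hadj : ∀ u v : ι → F, polar (⇑Q) (k *ᵥ u) v = polar (⇑Q) u (k' *ᵥ v)) : k' = k ^ (Nat.card F) ^ j := by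
  obtain ⟨g, hgH, hiso, hgr, hg1⟩ := exists_elt hH hr (by omega) hdvd
  have hcomm := comm_field hs hK (hHK hgH) hr.prime hrs hgr
  obtain ⟨hcm, -⟩ := hiso.even_case hQ (lin_ne_one hg1) hr (even_two_mul j)
    (by rw [Module.finrank_fintype_fun_eq_card]; omega)
  have hc : ∀ a ∈ K, ∀ v, Matrix.toLin' a (lin g v) = lin g (Matrix.toLin' a v) := by
    intro a ha v
    rw [lin, Matrix.toLin'_apply, Matrix.toLin'_apply, Matrix.toLin'_apply, Matrix.toLin'_apply,
      Matrix.mulVec_mulVec, Matrix.mulVec_mulVec, hcomm a ha]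
  have h1 := Iso.adj_eq hj hiso hQ (lin_ne_one hg1) hr hcm (J := Matrix.toLin' k) (J' := Matrix.toLin' k')
    (hc k hk) (hc k' hk') (fun u v => by
      rw [Matrix.toLin'_apply, Matrix.toLin'_apply]
      exact hadj u v)
  obtain ⟨w₀, hw₀, hw₀1⟩ := (Submodule.ne_bot_iff _).1 (cm_ne_bot (lin_ne_one hg1))
  have h2 := h1 w₀ hw₀
  rw [← Matrix.toLin'_pow, Matrix.toLin'_apply, Matrix.toLin'_apply] at h2
  by_contra hne
  have hd : k' - k ^ (Nat.card F) ^ j ≠ 0 := sub_ne_zero.2 hne
  have hdK : k' - k ^ (Nat.card F) ^ j ∈ K := K.sub_mem hk' (K.pow_mem hk _)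
  obtain ⟨y, hy, hy1⟩ := hK.inv _ hdK hd
  rw [hK.comm _ hdK _ hy] at hy1
  apply hw₀1
  have h3 : (k' - k ^ (Nat.card F) ^ j) *ᵥ w₀ = 0 := by
    rw [Matrix.sub_mulVec, h2, sub_self]
  rw [← Matrix.one_mulVec w₀, ← hy1, ← Matrix.mulVec_mulVec, h3, Matrix.mulVec_zero]

/-- **Two exponents.** -/
theorem no_two {j₁ j₂ r₁ r₂ : ℕ} (hj₁ : 3 ≤ j₁) (hj₂ : 3 ≤ j₂) (hn₁ : Fintype.card ι < 4 * j₁)
    (hn₂ : Fintype.card ι < 4 * j₂) (he : Even j₁) (ho : Odd j₂)
    (hι : 1 ≤ Fintype.card ι) (hQ : Nondeg Q) (hH : H ≤ Cfsg.isometryGroup F (⇑Q))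
    (hr₁ : PP (Nat.card F) (2 * j₁) r₁) (hdvd₁ : r₁ ∣ Nat.card H)
    (hr₂ : PP (Nat.card F) (2 * j₂) r₂) (hdvd₂ : r₂ ∣ Nat.card H)
    {K : Subalgebra F (Matrix ι ι F)} (hK : IsFieldSubalgebra 2 K) (hHK : H ≤ subalgebraNormalizer K)
    (hKa : IsAdjointClosedFor (polar (⇑Q)) K) : False := by
  have hne : Nonempty ι := Fintype.card_pos_iff.1 (by omega)
  have hq := one_lt_q F
  have hl₁ := hr₁.lt (by omega)
  have hl₂ := hr₂.lt (by omega)
  let _ : Field K := (H912.isField_of_fieldSub hK).toField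
  have hfd : Module.Finite F K := inferInstance
  have hKfin : Finite K := Module.finite_of_finite F
  let _ : Fintype K := Fintype.ofFinite K
  have hcard : Fintype.card K = Nat.card F ^ 2 := by
    rw [Module.card_eq_pow_finrank (K := F) (V := K), hK.finrank_eq, Nat.card_eq_fintype_card]
  have hpow : ∀ a : K, ∀ i : ℕ, a ^ (Nat.card F) ^ (2 * i) = a := by
    intro a i
    induction i with
    | zero => simp
    | succ i ih =>
      rw [mul_add, mul_one, pow_add, pow_mul, ih, ← hcard, FiniteField.pow_card]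
  -- all elements of `K` are fixed by the `q`-th power
  have hfix : ∀ a : K, a ^ Nat.card F = a := by
    intro a
    obtain ⟨k', hk', hadj⟩ := hKa a a.2
    have h1 := adj_field (by omega) hn₁ hQ hH Nat.prime_two hr₁ hdvd₁ (by omega) hK hHK a.2 hk' hadj
    have h2 := adj_field (by omega) hn₂ hQ hH Nat.prime_two hr₂ hdvd₂ (by omega) hK hHK a.2 hk' hadj
    have h3 : a ^ (Nat.card F) ^ j₁ = a ^ (Nat.card F) ^ j₂ := by
      apply Subtype.ext
      rw [SubmonoidClass.coe_pow, SubmonoidClass.coe_pow, ← h1, ← h2]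
    obtain ⟨i₁, hi₁⟩ := he
    obtain ⟨i₂, hi₂⟩ := ho
    rw [hi₁, ← two_mul, hpow, hi₂, pow_succ, pow_mul, hpow] at h3
    exact h3.symm
  have h4 : Fintype.card K ≤ Nat.card F := by
    classical
    have hX : (Polynomial.X ^ Nat.card F - Polynomial.X : Polynomial K) ≠ 0 :=
      FiniteField.X_pow_card_sub_X_ne_zero K hq
    have h5 : (Finset.univ : Finset K) ⊆ (Polynomial.X ^ Nat.card F - Polynomial.X : Polynomial K).roots.toFinset := by
      intro a _
      rw [Multiset.mem_toFinset, Polynomial.mem_roots hX, Polynomial.IsRoot.def, Polynomial.eval_sub,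
        Polynomial.eval_pow, Polynomial.eval_X, hfix, sub_self]
    have h6 := Finset.card_le_card h5
    rw [Finset.card_univ] at h6
    refine h6.trans ((Multiset.toFinset_card_le _).trans ((Polynomial.card_roots' _).trans ?_))
    rw [FiniteField.X_pow_card_sub_X_natDegree_eq K hq]
  rw [hcard, pow_two] at h4
  have := Nat.mul_le_mul_left (Nat.card F) hq
  omega

end Mat

end Cfsg.Agent.H305.BS
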